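import Cfsg.Agent.Lib.Helper35.M11P11.PData

set_option Elab.async false

namespace Cfsg.Agent.Lib.Helper35.M11P11

open Cfsg.Agent.Lib.Helper35

theorem rc0 : allBelow (fun k => fr (Nat.add 0 k)) 11 = true := by decide +kernel
theorem ru0 : ∀ i, i < 11 → fr i = true := below_step fr 0 11 11 (below_zero fr) rc0 rfl
theorem c0c0 : allBelow (fun k => fc0 (Nat.add 0 k)) 11 = true := by decide +kernel
theorem c0u0 : ∀ i, i < 11 → fc0 i = true := below_step fc0 0 11 11 (below_zero fc0) c0c0 rfl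
theorem c1c0 : allBelow (fun k => fc1 (Nat.add 0 k)) 11 = true := by decide +kernel
theorem c1u0 : ∀ i, i < 11 → fc1 i = true := below_step fc1 0 11 11 (below_zero fc1) c1c0 rfl
theorem c2c0 : allBelow (fun k => fc2 (Nat.add 0 k)) 11 = true := by decide +kernel
theorem c2u0 : ∀ i, i < 11 → fc2 i = true := below_step fc2 0 11 11 (below_zero fc2) c2c0 rfl
theorem tc0 : allBelow (fun k => ft (Nat.add (Nat.succ 0) k)) 10 = true := by decide +kernel
theorem tu0 : ∀ v, 1 ≤ v → v ≤ 10 → ft v = true := slots_step ft 0 10 10 (slots_zero ft) tc0 rfl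
theorem oc0 : allBelow (fun k => fo (Nat.add 0 k)) 11 = true := by decide +kernel
theorem ou0 : ∀ i, i < 11 → fo i = true := below_step fo 0 11 11 (below_zero fo) oc0 rfl
theorem l0z : countBelow fl0 0 = 0 := rfl
theorem l0k0 : countBelow (fun k => fl0 (Nat.add 0 k)) 11 = 1 := by decide +kernel
theorem l0n0 : countBelow fl0 11 = 1 := countBelow_step fl0 0 11 11 0 1 1 l0z l0k0 rfl rfl
theorem l1z : countBelow fl1 0 = 0 := rfl
theorem l1k0 : countBelow (fun k => fl1 (Nat.add 0 k)) 11 = 10 := by decide +kernel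
theorem l1n0 : countBelow fl1 11 = 10 := countBelow_step fl1 0 11 11 0 10 10 l1z l1k0 rfl rfl

end Cfsg.Agent.Lib.Helper35.M11P11
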